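import Mathlib
import Cfsg.Agent.Lib.Helper39.PHyp.RWrap
import Cfsg.Agent.Lib.Helper84.OPar.PlusQ
import Cfsg.Agent.Lib.Helper45.OPar.Scal
import Cfsg.Agent.Lib.Helper97.OHyp.Split
import Cfsg.Agent.Lib.Helper97.OHyp.OddOmega
import Cfsg.Agent.Lib.Helper27.OHyp.BlkFinal
import Cfsg.Agent.Lib.Helper87.OHyp.Perp
import Cfsg.Agent.Lib.Helper87.OHyp.Div
import Cfsg.Agent.Lib.Helper1.OHyp.Sum
import Cfsg.Agent.Lib.Helper37.OHyp.Sub
import Cfsg.Agent.Lib.Helper37.OHyp.Geom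
import Cfsg.Agent.Lib.Helper12.OHyp.Exist
import Cfsg.Agent.Lib.Helper72.OPar.ExeK
import Cfsg.Agent.Lib.Helper80.OPar.Exe0
import Cfsg.Agent.Lib.Helper45.OHyp.CntCong
import Cfsg.Agent.Lib.Helper73.OHyp.CntWitt
import Cfsg.Agent.Lib.Helper62.OHyp.CntCauchy
import Cfsg.Agent.Lib.Helper61.OHyp.CntIn

/-!
# PHYP (S5974), regime [TOO] (`r` odd, `q` odd): the bundle in odd characteristic and the three
packages `PkgStrFixO`, `PkgStrDerO`, `PkgCntO`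
-/

set_option autoImplicit false

universe u

open Matrix
open scoped MatrixGroups
open Cfsg.Agent.Lib.Helper23.OHyp

namespace Cfsg.Agent.Lib.Helper39.PHyp

/-- the bundle in odd characteristic, from the landed OHYP / OPAR packages -/
theorem bdlO {F : Type u} [Field F] [Fintype F] (h2 : (2 : F) ≠ 0) (d r : ℕ) (hd : 1 ≤ d)
    (hr : r.Prime) (hr2 : r ≠ 2) (hrq : ¬ r ∣ Fintype.card F) :
    Bdl (Cfsg.quadFormPlus d F) r := by
  obtain ⟨hQ, hplus⟩ := Cfsg.Agent.Lib.Helper84.OPar.pkgPlusQ.{u} F h2 d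
  have hrF : (r : F) ≠ 0 := natCast_ne_zero_of_not_dvd_card hr hrq
  have hStd : ∀ x : Matrix (Fin d ⊕ Fin d) (Fin d ⊕ Fin d) F, x ^ r = 1 →
      (∀ v, Cfsg.quadFormPlus d F (x *ᵥ v) = Cfsg.quadFormPlus d F v) →
      Std (Cfsg.quadFormPlus d F) r x :=
    fun x hx hiso => ⟨hQ, h2, hr, hr2, hrq, hrF, hx, hiso⟩
  have hSplit := Cfsg.Agent.Lib.Helper97.OHyp.pkgSplit.{u}
  have hBlk := Cfsg.Agent.Lib.Helper27.OHyp.pkgBlk.{u}
  have hPerp := Cfsg.Agent.Lib.Helper87.OHyp.pkgPerp.{u}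
  have hSum := Cfsg.Agent.Lib.Helper1.OHyp.pkgSum.{u}
  have hDiv := Cfsg.Agent.Lib.Helper87.OHyp.pkgDiv_of hBlk hPerp hSum
  have hSub := Cfsg.Agent.Lib.Helper37.OHyp.pkgSub_of hBlk hPerp hSum
  have hGeom := Cfsg.Agent.Lib.Helper37.OHyp.pkgGeom.{u}
  have hExist := Cfsg.Agent.Lib.Helper12.OHyp.pkgExist_of_split_div hSplit hDiv
  have hExeK := Cfsg.Agent.Lib.Helper72.OPar.pkgExeK_of hExist
  have hExe0 := Cfsg.Agent.Lib.Helper80.OPar.pkgExe0.{u}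
  have hOO := Cfsg.Agent.Lib.Helper97.OHyp.pkgOddOmega.{u}
  have hCong := Cfsg.Agent.Lib.Helper45.OHyp.pkgCntCong.{u}
  have hWitt := Cfsg.Agent.Lib.Helper73.OHyp.pkgCntWitt_of hSplit
  have hCauchy := Cfsg.Agent.Lib.Helper62.OHyp.pkgCntCauchy_of hSplit hDiv
  have hCntIn := Cfsg.Agent.Lib.Helper61.OHyp.pkgCntIn_of hGeom hSplit hWitt hCauchy
  have hcard := card_sum_fin d
  haveI : Nonempty (Fin d ⊕ Fin d) := ⟨Sum.inl ⟨0, hd⟩⟩
  have hrodd : Odd r := hr.odd_of_ne_two hr2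
  exact
    { plus_top := hplus
      scal := fun z hz =>
        Cfsg.Agent.Lib.Helper45.OPar.pkgScal.{u} F (Fin d ⊕ Fin d) (Cfsg.quadFormPlus d F) hQ z hz
      split := fun x hx hiso => hSplit F _ _ r x (hStd x hx hiso)
      div := fun x hx hiso => hDiv F _ _ r x (hStd x hx hiso)
      sub := fun x hx hiso => hSub F _ _ r x (hStd x hx hiso)
      geom := fun C hC e ε he hle h0 => hGeom F _ _ hQ h2 C hC e ε he hle h0
      sum := fun W₁ W₂ h1 h2' hp => hSum F _ _ hQ h2 W₁ W₂ h1 h2' hp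
      exk := fun j hj hle => by
        obtain ⟨x, hx, hxo, hxf⟩ := hExeK F _ _ hQ h2 (by rw [hcard]; exact even_two_mul d)
          r hr hr2 hrq j hj hle
        exact ⟨x, hOO F _ _ hQ h2 x hx (by rw [hxo]; exact hrodd), hxo, hxf⟩
      ex0 := fun h0 hty => by
        obtain ⟨x, hx, hxo, hxf⟩ := hExe0 F h2 d r hd hr hr2 hrq (by rw [← hcard]; exact h0)
          (by rw [← hcard]; exact hty)
        exact ⟨x, hOO F _ _ hQ h2 x hx (by rw [hxo]; exact hrodd), hxo, hxf⟩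
      cong := fun m x hx hxr => hCong F _ _ m r hr x hx hxr
      cntIn := fun x hx hiso m hme hlt hltc => hCntIn F _ _ r x (hStd x hx hiso) m hme hlt hltc }

/-- **[STRFIX-O]** -/
theorem pkgStrFixO : Cfsg.Agent.Lib.Helper63.PHyp.PkgStrFixO.{u} := by
  intro F _ _ h2
  exact strFixAt_of (fun d r hd hr hr2 hrq => bdlO h2 d r (by omega) hr hr2 hrq)

/-- **[STRDER-O]** -/
theorem pkgStrDerO : Cfsg.Agent.Lib.Helper63.PHyp.PkgStrDerO.{u} := by
  intro F _ _ h2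
  exact strDerAt_of (fun d r hd hr hr2 hrq => bdlO h2 d r (by omega) hr hr2 hrq)

/-- **[CNT-O]** -/
theorem pkgCntO : Cfsg.Agent.Lib.Helper63.PHyp.PkgCntO.{u} := by
  intro F _ _ h2
  exact cntAt_of (fun d r hd hr hr2 hrq => bdlO h2 d r (by omega) hr hr2 hrq)

end Cfsg.Agent.Lib.Helper39.PHyp
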